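import Cfsg.Agent.H75.ChevTwoGen.Core

/-!
# Two-generation of Chevalley groups over the field of two elements

`n_w` together with `x_r(1)`, or together with `x_m(1)` times an element of order three commuting with it.
-/

set_option autoImplicit false

namespace Cfsg.Agent.H75.ChevTwoGen

open Cfsg.Lie Cfsg.Agent.H46
open scoped MatrixGroups

variable {D : ChevalleyDatum} {F : Type*} [Field F] [Finite F]

/-- The certificate for generators `x_r(1)`, `n_w`. -/
def chkCert₁ (D : ChevalleyDatum) (w : List ℕ) (r : ℕ) (or : List ℕ) (ss : List (ℕ × ℕ × ℕ)) : Bool :=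
  okWord D w && chainB D w r or && chkSteps D [] (r :: or) ss

/-- Two roots whose root groups commute. -/
def chkComm (D : ChevalleyDatum) (r s : ℕ) : Bool :=
  Nat.blt r D.nroots && Nat.blt s D.nroots && !Nat.beq s r && !Nat.beq s (D.neg r) && (D.commTerms r s).isEmpty

/-- The certificate for generators `x_m(1) x_k(1) x_{-k}(1)`, `n_w`. -/
def chkCert₂ (D : ChevalleyDatum) (w : List ℕ) (m k a k₂ : ℕ) (om o2 : List ℕ) (ss : List (ℕ × ℕ × ℕ)) : Bool :=
  okWord D w && chkComm D m k && chkComm D m (D.neg k) && chkComm D a (D.neg k) && chainB D w m om &&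
    (m :: om).contains a && !Nat.beq k a && !Nat.beq k (D.neg a) &&
    (match (D.commTerms a k).filter (fun c => !(m :: om).contains c.1) with
      | [c] => Nat.beq c.1 k₂ && (decide (c.2.1 = 1) || decide (c.2.1 = -1))
      | _ => false) &&
    chainB D w k₂ o2 && chkSteps D [] ((k₂ :: o2) ++ (m :: om)) ss

theorem full_of_one (G : Good D) (h2 : ∀ x : F, x = 0 ∨ x = 1) {H : Subgroup (GL D.Idx F)} {r : ℕ}
    (h : One G H r) : Full G H r := fun t => by
  rcases h2 t with rfl | rfl
  · rw [G.xg_zero]; exact one_mem _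
  · exact h

theorem exists_pair_of_cert₁ (G : Good D) (hdesc : H64.Chev.chkDescend D = true) (h2 : ∀ x : F, x = 0 ∨ x = 1)
    {w : List ℕ} {r : ℕ} {or : List ℕ} {ss : List (ℕ × ℕ × ℕ)} (h : chkCert₁ D w r or ss = true) :
    ∃ a ∈ D.group F, ∃ b ∈ D.group F, D.group F ≤ Subgroup.closure {a, b} := by
  simp only [chkCert₁, Bool.and_eq_true] at h
  obtain ⟨⟨hw, hor⟩, hss⟩ := h
  refine ⟨G.xg r 1, G.xg_mem_group _ _, nW G w, nW_mem_group G w, ?_⟩
  set H := Subgroup.closure {G.xg r (1 : F), nW G w}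
  have hn : nW G w ∈ H := Subgroup.subset_closure (Set.mem_insert_of_mem _ rfl)
  refine steps_spec (G := G) hdesc (one := []) (fun _ h => by simp at h) ss _ hss
    (chain_spec (P := Full G H) (fun s hs => Full.wact hw hn hs) or r hor ?_)
  exact full_of_one G h2 (Subgroup.subset_closure (Set.mem_insert _ _))

omit [Finite F] in
theorem commute_of_chkComm (G : Good D) {r s : ℕ} (h : chkComm D r s = true) (t u : F) :
    Commute (G.xg r t) (G.xg s u) := by
  simp only [chkComm, Bool.and_eq_true, Bool.not_eq_true', Nat.blt_eq] at h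
  obtain ⟨⟨⟨⟨hr, hs⟩, hne⟩, hneg⟩, hnil⟩ := h
  have h1 : s ≠ r := fun e => by subst e; simp at hne
  have h2 : s ≠ D.neg r := fun e => by subst e; simp at hneg
  have := xg_comm (G := G) hr hs h1 h2 t u
  rw [List.isEmpty_iff.1 hnil, List.map_nil, List.prod_nil, mul_one] at this
  exact this.symm

theorem exists_pair_of_cert₂ (G : Good D) (hdesc : H64.Chev.chkDescend D = true) (h2 : ∀ x : F, x = 0 ∨ x = 1)
    {w : List ℕ} {m k a k₂ : ℕ} {om o2 : List ℕ} {ss : List (ℕ × ℕ × ℕ)}
    (h : chkCert₂ D w m k a k₂ om o2 ss = true) :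
    ∃ a ∈ D.group F, ∃ b ∈ D.group F, D.group F ≤ Subgroup.closure {a, b} := by
  simp only [chkCert₂, Bool.and_eq_true, Bool.not_eq_true', List.contains_iff_mem] at h
  obtain ⟨⟨⟨⟨⟨⟨⟨⟨⟨⟨hw, hmk⟩, hmk'⟩, hak'⟩, hom⟩, ha⟩, hka⟩, hka'⟩, hterm⟩, ho2⟩, hss⟩ := h
  have hk1 : k ≠ a := fun e => by subst e; simp at hka
  have hk2 : k ≠ D.neg a := fun e => by subst e; simp at hka'
  have hmem := hmk
  simp only [chkComm, Bool.and_eq_true, Nat.blt_eq] at hmem
  obtain ⟨⟨⟨⟨hm, hk⟩, -⟩, -⟩, -⟩ := hmem
  have hmem := hak'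
  simp only [chkComm, Bool.and_eq_true, Nat.blt_eq] at hmem
  obtain ⟨⟨⟨⟨ha', hnk⟩, -⟩, -⟩, -⟩ := hmem
  have h11 : (1 : F) + 1 = 0 := by
    rcases h2 (1 + 1) with h | h
    · exact h
    · simp at h
  have hneg1 : (-1 : F) = 1 := (eq_neg_of_add_eq_zero_left h11).symm
  set X := G.xg k (1 : F)
  set X' := G.xg (D.neg k) (1 : F)
  set M := G.xg m (1 : F)
  set y := X * X'
  have hX : X * X = 1 := by rw [G.xg_add, h11, G.xg_zero]
  have hX' : X' * X' = 1 := by rw [G.xg_add, h11, G.xg_zero]
  have hM : M * M = 1 := by rw [G.xg_add, h11, G.xg_zero]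
  have hy3 : y ^ 3 = 1 := by
    have h := G.ng_mul_xg hk (a := (1 : F)) one_ne_zero 1
    simp only [Good.ng, inv_one, mul_one, hneg1] at h
    change X * X' * X * X = X' * (X * X' * X) at h
    rw [mul_assoc (X * X'), hX, mul_one] at h
    calc y ^ 3 = (X * X') * X * (X' * (X * X')) := by simp [y, pow_succ, mul_assoc]
      _ = (X' * (X * X' * X)) * X * (X' * (X * X')) := by rw [← h]
      _ = X' * (X * (X' * ((X * X) * (X' * (X * X'))))) := by simp [mul_assoc]
      _ = X' * (X * ((X' * X') * (X * X'))) := by rw [hX, one_mul]; simp [mul_assoc]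
      _ = X' * ((X * X) * X') := by rw [hX', one_mul, ← mul_assoc X X X']
      _ = 1 := by rw [hX, one_mul, hX']
  have hc : Commute M y := (commute_of_chkComm G hmk 1 1).mul_right (commute_of_chkComm G hmk' 1 1)
  refine ⟨M * y, mul_mem (G.xg_mem_group _ _) (mul_mem (G.xg_mem_group _ _) (G.xg_mem_group _ _)), nW G w,
    nW_mem_group G w, ?_⟩
  set H := Subgroup.closure {M * y, nW G w}
  have hn : nW G w ∈ H := Subgroup.subset_closure (Set.mem_insert_of_mem _ rfl)
  have hMy : M * y ∈ H := Subgroup.subset_closure (Set.mem_insert _ _)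
  have hMH : M ∈ H := by
    have h := pow_mem hMy 3
    rwa [hc.mul_pow, hy3, mul_one, pow_succ, pow_two, hM, one_mul] at h
  have hyH : y ∈ H := by
    have h := mul_mem (inv_mem hMH) hMy
    rwa [inv_mul_cancel_left] at h
  have hS : ∀ s ∈ m :: om, Full G H s :=
    chain_spec (P := Full G H) (fun s hs => Full.wact hw hn hs) om m hom (full_of_one G h2 hMH)
  set A := G.xg a (1 : F)
  have hA : A ∈ H := (hS a ha).one
  have hA2 : A * A = 1 := by rw [G.xg_add, h11, G.xg_zero]
  have hsq : (A * X) * (A * X) ∈ H := by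
    have h := mul_mem (mul_mem (mul_mem hA hyH) hA) (inv_mem hyH)
    have e : A * y * A * y⁻¹ = A * X * (A * X) := by
      have ec := (commute_of_chkComm G hak' (1 : F) 1).eq
      change A * X' = X' * A at ec
      calc A * y * A * y⁻¹ = A * X * (X' * A) * (X'⁻¹ * X⁻¹) := by simp only [y, mul_inv_rev, mul_assoc]
        _ = A * X * A * X⁻¹ := by rw [← ec]; group
        _ = _ := by rw [inv_eq_of_mul_eq_one_right hX]; group
    rwa [e] at h
  have hword : ((D.commTerms a k).map (term G (1 : F) 1)).prod ∈ H := by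
    have e := xg_comm (G := G) ha' hk hk1 hk2 (1 : F) 1
    change X * A = A * X * _ at e
    have e2 : ((D.commTerms a k).map (term G (1 : F) 1)).prod = (A * X)⁻¹ * (X * A) := by
      rw [e, inv_mul_cancel_left]
    rw [e2, mul_inv_rev, inv_eq_of_mul_eq_one_right hX, inv_eq_of_mul_eq_one_right hA2]
    have e3 : X * A * (X * A) = (A * X * (A * X))⁻¹ := by
      rw [mul_inv_rev, mul_inv_rev, inv_eq_of_mul_eq_one_right hX, inv_eq_of_mul_eq_one_right hA2]
    rw [e3]; exact inv_mem hsq
  have hk₂ : Full G H k₂ := by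
    generalize hL : (D.commTerms a k).filter (fun c => !(m :: om).contains c.1) = L at hterm
    match L, hterm with
    | [c], hterm =>
      simp only [Bool.and_eq_true, Bool.or_eq_true, decide_eq_true_eq] at hterm
      obtain ⟨hk', hM'⟩ := hterm
      refine full_of_one G h2 ?_
      rw [← Nat.eq_of_beq_eq_true hk']
      have := isolate (H := H) (term G (1 : F) 1) (fun d => (m :: om).contains d.1) (D.commTerms a k)
        (fun d _ hd => hS d.1 (List.contains_iff_mem.1 hd) _) hL hword
      rcases hM' with e | e <;> simpa [term, One, e, hneg1] using this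
  refine steps_spec (G := G) hdesc (one := []) (fun _ h => by simp at h) ss _ hss fun r hr => ?_
  rcases List.mem_append.1 hr with hr | hr
  · exact chain_spec (P := Full G H) (fun s hs => Full.wact hw hn hs) o2 k₂ ho2 hk₂ r hr
  · exact hS r hr

end Cfsg.Agent.H75.ChevTwoGen
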