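import Cfsg.Agent.H75.ChevTwoGen.Core
import Cfsg.Prelude.Def_LieChev
import Mathlib.FieldTheory.Perfect

/-!
# Two-generation of `G₂(q)`, `q ≥ 3`

From the short root groups and the long elements `x(1)` a long root group comes by a commutator: of two short ones
unless the characteristic is three, and of a short and a long one in characteristic three.
-/

set_option autoImplicit false
set_option maxRecDepth 10000
set_option maxHeartbeats 400000

namespace Cfsg.Agent.H75.ChevTwoGen

open Cfsg.Lie Cfsg.Agent.H46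
open scoped MatrixGroups

/-- The tables of `G₂` needed below. -/
def IsG2Cert (D : ChevalleyDatum) : Prop :=
  chkSeed D [0, 1] 0 0 3 2 = true ∧ chainB D [0, 1] 3 [7, 9, 8, 4, 2] = true ∧
    chainB D [0, 1] 0 [5, 10, 11, 6, 1] = true ∧ chainB D [0, 1] 5 [10, 11, 6, 1, 0] = true ∧
    chainB D [0, 1] 10 [11, 6, 1, 0, 5] = true ∧
    chkSteps D [] [3, 7, 9, 8, 4, 2, 5, 10, 11, 6, 1, 0] [] = true ∧
    D.commTerms 7 3 = [(5, 3, 1, 1)] ∧
    D.commTerms 7 6 = [(8, -1, 1, 1), (9, 1, 2, 1), (10, 1, 3, 1), (11, 1, 3, 2)] ∧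
    D.nroots = 12 ∧ D.neg 7 = 4 ∧ okWord D [0, 1] = true

theorem certG2 : IsG2Cert chevG2 := by
  unfold IsG2Cert
  decide +kernel

theorem exists_pair_G2 {D : ChevalleyDatum} (hcert : IsG2Cert D) (G : Good D) (hdesc : H64.Chev.chkDescend D = true) {F : Type*} [Field F]
    [Finite F] (hq : ∃ x : F, x ≠ 0 ∧ x ≠ 1) :
    ∃ a ∈ D.group F, ∃ b ∈ D.group F, D.group F ≤ Subgroup.closure {a, b} := by
  obtain ⟨hseed, hs1, hl1, hl2, hl3, hfin, hc73, hc76, hn, hneg, hw⟩ := hcert
  obtain ⟨ζ, hζ⟩ := IsCyclic.exists_generator (α := Fˣ)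
  have hne : ζ ≠ 1 := by
    rintro rfl
    obtain ⟨x, hx0, hx1⟩ := hq
    have := hζ (Units.mk0 x hx0)
    rw [Subgroup.zpowers_one_eq_bot, Subgroup.mem_bot] at this
    exact hx1 (congrArg Units.val this)
  refine ⟨genA G 0 0 (ζ : F), mul_mem (G.hg_mem_group _ _) (G.xg_mem_group _ _), genB G [0, 1] 3,
    mul_mem (G.xg_mem_group _ _) (nW_mem_group G _), ?_⟩
  set H := Subgroup.closure {genA G 0 0 (ζ : F), genB G [0, 1] 3}
  obtain ⟨hf, ho, hnH⟩ := seed_spec (H := H) hseed ζ hζ hne (Subgroup.subset_closure (Set.mem_insert _ _))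
    (Subgroup.subset_closure (Set.mem_insert_of_mem _ rfl))
  have hS : ∀ s ∈ [3, 7, 9, 8, 4, 2], Full G H s :=
    chain_spec (P := Full G H) (fun s hs => Full.wact hw hnH hs) _ 3 hs1 hf
  have hL : ∀ s ∈ [0, 5, 10, 11, 6, 1], One G H s :=
    chain_spec (P := One G H) (fun s hs => One.wact hw hnH hs) _ 0 hl1 ho
  -- a whole long root group
  have hlong : ∀ s ∈ [5, 10, 11, 6, 1, 0], Full G H s := by
    by_cases h3 : (3 : F) = 0
    · haveI : CharP F 3 := by
        refine (CharP.charP_iff_prime_eq_zero Nat.prime_three).2 ?_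
        exact_mod_cast h3
      haveI : Fact (Nat.Prime 3) := ⟨Nat.prime_three⟩
      have key : ∀ (t u : F), G.xg 6 u ∈ H →
          G.xg 10 ((-t) ^ 3 * u) * G.xg 11 ((-t) ^ 3 * u ^ 2) ∈ H := by
        intro t u hu
        have h := word_mem (G := G) (H := H) (r := 7) (s := 6) (by omega) (by omega) (by omega) (by omega)
          (hS 7 (by simp) t) hu
        rw [hc76] at h
        simp only [term, List.map_cons, List.map_nil, List.prod_cons, List.prod_nil, mul_one, pow_one,
          Int.cast_one, one_mul] at h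
        replace h := (H.mul_mem_cancel_left (hS 8 (by simp) _)).1 h
        replace h := (H.mul_mem_cancel_left (hS 9 (by simp) _)).1 h
        exact h
      have h10 : Full G H 10 := by
        intro c
        obtain ⟨t, rfl⟩ := Finite.surjective_of_injective (frobenius_inj F 3) c
        have h := mul_mem (key t 1 (hL 6 (by simp)))
          (inv_mem (key t (-1) ((hL 6 (by simp)).sign (Or.inr rfl))))
        rw [mul_inv_rev, G.xg_inv, G.xg_inv, mul_assoc, ← mul_assoc (G.xg 11 _), G.xg_add] at h
        simp only [one_pow, neg_one_sq, mul_one, add_neg_cancel, G.xg_zero, one_mul, mul_neg, neg_neg, G.xg_add]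
          at h
        rw [frobenius_def]
        have e : (-t) ^ 3 + (-t) ^ 3 = t ^ 3 := by linear_combination (-(t ^ 3)) * h3
        rwa [e] at h
      have hlist := chain_spec (P := Full G H) (fun s hs => Full.wact hw hnH hs) _ 10 hl3 h10
      intro s hs
      refine hlist s ?_
      simp only [List.mem_cons, List.not_mem_nil, or_false] at hs ⊢
      omega
    · have h5 : Full G H 5 := by
        intro t
        have h := word_mem (G := G) (H := H) (r := 7) (s := 3) (by omega) (by omega) (by omega) (by omega)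
          (hS 7 (by simp) (-(t / 3))) (hS 3 (by simp) 1)
        rw [hc73] at h
        simpa [term, mul_div_cancel₀ t h3] using h
      exact chain_spec (P := Full G H) (fun s hs => Full.wact hw hnH hs) _ 5 hl2 h5
  refine steps_spec (G := G) hdesc (one := []) (fun _ h => by simp at h) [] _ hfin fun r hr => ?_
  have hr' : r ∈ [3, 7, 9, 8, 4, 2] ∨ r ∈ [5, 10, 11, 6, 1, 0] := by
    simp only [List.mem_cons, List.not_mem_nil, or_false] at hr ⊢
    omega
  exact hr'.elim (hS r) (hlong r)

end Cfsg.Agent.H75.ChevTwoGen
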